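import Cfsg.Agent.Lib.H04.Tf.WeylF
import Cfsg.Agent.Lib.H04.Tw.Perf

/-!
# The groups `²F₄` are perfect
-/

set_option autoImplicit false
set_option linter.style.longLine false
set_option linter.unusedSimpArgs false
set_option linter.unusedSectionVars false
set_option linter.unusedVariables false
set_option maxRecDepth 100000
set_option synthInstance.maxHeartbeats 0
set_option synthInstance.maxSize 100000

open Cfsg.Lie Cfsg.Agent.H04.Chev Cfsg.Agent.H04.Tw
open Cfsg.Agent.H04.Chev.TF4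

namespace Cfsg.Agent.H04.Tf

lemma abs_QP {G : Type*} [Group G] {a1 b1 c1 d1 a2 b2 c2 d2 p r : G}
    (h1 : d1 * a2 = a2 * d1) (h2 : c1 * a2 = a2 * c1) (h3 : b1 * a2 = a2 * b1 * p * r)
    (h4 : d1 * b2 = b2 * d1) (h5 : c1 * b2 = b2 * c1) (h6 : r * b2 = b2 * r) (h7 : p * b2 = b2 * p)
    (h8 : r * c1 = c1 * r) (h9 : p * c1 = c1 * p) (h10 : r * d1 = d1 * r) (h11 : r * c2 = c2 * r) (h12 : d1 * c2 = c2 * d1) (h13 : p * c2 = c2 * p)
    (h14 : r * d2 = d2 * r) :
    a1 * b1 * c1 * d1 * (a2 * b2 * c2 * d2) = a1 * a2 * (b1 * b2) * (c1 * c2 * p) * (d1 * d2 * r) := by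
  calc a1 * b1 * c1 * d1 * (a2 * b2 * c2 * d2) = a1 * b1 * c1 * (d1 * a2) * b2 * c2 * d2 := by group
    _ = a1 * b1 * (c1 * a2) * d1 * b2 * c2 * d2 := by rw [h1]; group
    _ = a1 * (b1 * a2) * c1 * d1 * b2 * c2 * d2 := by rw [h2]; group
    _ = a1 * a2 * b1 * p * r * c1 * (d1 * b2) * c2 * d2 := by rw [h3]; group
    _ = a1 * a2 * b1 * p * r * (c1 * b2) * d1 * c2 * d2 := by rw [h4]; group
    _ = a1 * a2 * b1 * p * (r * b2) * c1 * d1 * c2 * d2 := by rw [h5]; group
    _ = a1 * a2 * b1 * (p * b2) * r * c1 * d1 * c2 * d2 := by rw [h6]; group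
    _ = a1 * a2 * (b1 * b2) * p * (r * c1) * d1 * c2 * d2 := by rw [h7]; group
    _ = a1 * a2 * (b1 * b2) * (p * c1) * r * d1 * c2 * d2 := by rw [h8]; group
    _ = a1 * a2 * (b1 * b2) * c1 * p * (r * d1) * c2 * d2 := by rw [h9]; group
    _ = a1 * a2 * (b1 * b2) * c1 * p * d1 * (r * c2) * d2 := by rw [h10]; group
    _ = a1 * a2 * (b1 * b2) * c1 * p * (d1 * c2) * r * d2 := by rw [h11]; group
    _ = a1 * a2 * (b1 * b2) * c1 * (p * c2) * d1 * r * d2 := by rw [h12]; group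
    _ = a1 * a2 * (b1 * b2) * c1 * c2 * p * d1 * (r * d2) := by rw [h13]; group
    _ = _ := by rw [h14]; group

variable {D : ChevalleyDatum} {T : Tabs} {C : Checks D T} {K : Type*} [Field K] {S : SF C K} {θ θ' : K ≃+* K} {a b c d : ℕ}

namespace QuadH

/-- the product of general elements of a class of four roots -/
lemma QP_mul (h : QuadH S θ θ' a b c d) (t₁ t₂ t₃ t₄ s₁ s₂ s₃ s₄ : K) :
    QP C a b c d t₁ t₂ t₃ t₄ * QP C a b c d s₁ s₂ s₃ s₄ =
      QP C a b c d (t₁ + s₁) (t₂ + s₂) (t₃ + s₃ + s₁ * t₂) (t₄ + s₄ + s₁ ^ 2 * t₂) := by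
  unfold QP
  rw [← xG_add C, ← xG_add C, ← xG_add C, ← xG_add C, ← xG_add C, ← xG_add C]
  have cc : ∀ u v : K, xG C c u * xG C c v = xG C c v * xG C c u := fun u v => by
    rw [xG_add C, xG_add C, add_comm]
  have dd : ∀ u v : K, xG C d u * xG C d v = xG C d v * xG C d u := fun u v => by
    rw [xG_add C, xG_add C, add_comm]
  exact abs_QP (h.comm_ad _ _) (h.comm_ac _ _) (h.comm_ab _ _) (h.comm_bd _ _) (h.comm_bc _ _) (h.comm_bd _ _) (h.comm_bc _ _)
    (h.comm_cd _ _) (cc _ _) (dd _ _) (h.comm_cd _ _) (h.comm_cd _ _) (cc _ _) (dd _ _)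

variable [CharP K 2]

/-- the product of the elements of a class of four roots -/
lemma Eq_mul (h : QuadH S θ θ' a b c d) (hθ : ∀ t : K, θ' (θ t) = t) (hs : ∀ t : K, θ' t = (θ t) ^ 2) (t u t' u' : K) :
    Eq C θ θ' a b c d t u * Eq C θ θ' a b c d t' u' = Eq C θ θ' a b c d (t + t') (u + u' + θ t * t') := by
  unfold Eq
  rw [h.QP_mul]
  have h2 : (2 : K) = 0 := CharTwo.two_eq_zero
  congr 1
  · rw [map_add]
  · simp only [map_add]
    linear_combination (-(θ t * t')) * h2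
  · simp only [map_add, map_mul, hθ]
    rw [hs t']
    ring

lemma Eq_zero (h : QuadH S θ θ' a b c d) : Eq C θ θ' a b c d 0 0 = 1 := by
  simp [Eq, QP, xG_zero]

end QuadH

end Cfsg.Agent.H04.Tf

namespace Cfsg.Agent.H04.Tf.TF4

theorem cof28 : (U.cofI 28 0, U.cofI 28 1, U.cofI 28 2, U.cofI 28 3) = (0, 1, 1, 0) := by decide +kernel
theorem cof30 : (U.cofI 30 0, U.cofI 30 1, U.cofI 30 2, U.cofI 30 3) = (0, 2, 1, 0) := by decide +kernel

section
variable {K : Type*} [Field K] [Fintype K] [CharP K 2] {m : ℕ}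

lemma Ep_mul (t t' : K) : Ep checks (th K m) 33 24 t * Ep checks (th K m) 33 24 t' = Ep checks (th K m) 33 24 (t + t') := by
  unfold Ep
  rw [map_add, ← xG_add checks, ← xG_add checks]
  calc xG checks 33 (th K m t) * xG checks 24 t * (xG checks 33 (th K m t') * xG checks 24 t')
      = xG checks 33 (th K m t) * (xG checks 24 t * xG checks 33 (th K m t')) * xG checks 24 t' := by group
    _ = _ := by rw [cm1]; group

lemma Ep_zero : Ep checks (th K m) 33 24 (0 : K) = 1 := by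
  simp [Ep, xG_zero]

lemma Ep_self (t : K) : (Ep checks (th K m) 33 24 t)⁻¹ = Ep checks (th K m) 33 24 t := by
  apply inv_eq_of_mul_eq_one_right
  rw [Ep_mul, CharTwo.add_self_eq_zero, Ep_zero]

lemma tvT0 (s τ : Kˣ) : tv U chevF4 (psiT m s τ) 33 = s ^ 2 ^ m := by
  rw [show (33 : ℕ) = chevF4.simple 0 from rfl, tv_simple checks3 (by decide)]
  simp [psiT]

lemma tvT3 (s τ : Kˣ) : tv U chevF4 (psiT m s τ) 24 = s := by
  rw [show (24 : ℕ) = chevF4.simple 3 from rfl, tv_simple checks3 (by decide)]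
  simp [psiT]

lemma tvT1 (s τ : Kˣ) : tv U chevF4 (psiT m s τ) 27 = τ ^ 2 ^ m := by
  rw [show (27 : ℕ) = chevF4.simple 1 from rfl, tv_simple checks3 (by decide)]
  simp [psiT]

lemma tvT2 (s τ : Kˣ) : tv U chevF4 (psiT m s τ) 25 = τ := by
  rw [show (25 : ℕ) = chevF4.simple 2 from rfl, tv_simple checks3 (by decide)]
  simp [psiT]

lemma tvT28 (s τ : Kˣ) : tv U chevF4 (psiT m s τ) 28 = τ ^ 2 ^ m * τ := by
  have c := cof28
  simp only [Prod.mk.injEq] at c
  rw [tv4, c.1, c.2.1, c.2.2.1, c.2.2.2]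
  simp only [psiT, if_true, show (1 : ℕ) ≠ 0 by decide, show (2 : ℕ) ≠ 0 by decide, show (3 : ℕ) ≠ 0 by decide, show (2 : ℕ) ≠ 1 by decide, show (3 : ℕ) ≠ 1 by decide, show (3 : ℕ) ≠ 2 by decide, if_false]
  simp

lemma tvT30 (s τ : Kˣ) : tv U chevF4 (psiT m s τ) 30 = (τ ^ 2 ^ m) ^ 2 * τ := by
  have c := cof30
  simp only [Prod.mk.injEq] at c
  rw [tv4, c.1, c.2.1, c.2.2.1, c.2.2.2]
  simp only [psiT, if_true, show (1 : ℕ) ≠ 0 by decide, show (2 : ℕ) ≠ 0 by decide, show (3 : ℕ) ≠ 0 by decide, show (2 : ℕ) ≠ 1 by decide, show (3 : ℕ) ≠ 1 by decide, show (3 : ℕ) ≠ 2 by decide, if_false]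
  simp

/-- the action of the torus on the first class of two roots -/
lemma conj_TT_Ep (s τ : Kˣ) (v : K) : TT m s τ * Ep checks (th K m) 33 24 v * (TT m s τ)⁻¹ = Ep checks (th K m) 33 24 ((s : K) * v) := by
  unfold TT Ep
  have e : torusG U chevF4 (psiT m s τ) * (xG checks 33 (th K m v) * xG checks 24 v) * (torusG U chevF4 (psiT m s τ))⁻¹ =
      (torusG U chevF4 (psiT m s τ) * xG checks 33 (th K m v) * (torusG U chevF4 (psiT m s τ))⁻¹) * (torusG U chevF4 (psiT m s τ) * xG checks 24 v * (torusG U chevF4 (psiT m s τ))⁻¹) := by group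
  rw [e, conj_xx _ (by decide), conj_xx _ (by decide), tvT0, tvT3, map_mul, th_ap m (s : K), Units.val_pow_eq_pow_val]

variable (hK : Fintype.card K = 2 ^ (2 * m + 1))

include hK in
/-- the action of the torus on the first class of four roots -/
lemma conj_TT_Eq (s τ : Kˣ) (t u : K) : TT m s τ * Eq checks (th K m) (th' K m) 27 25 28 30 t u * (TT m s τ)⁻¹ =
    Eq checks (th K m) (th' K m) 27 25 28 30 ((τ : K) * t) (((τ ^ 2 ^ m * τ : Kˣ) : K) * u) := by
  unfold TT Eq QP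
  have e : ∀ (A a b c d : GL chevF4.Idx K), A * (a * b * c * d) * A⁻¹ = (A * a * A⁻¹) * (A * b * A⁻¹) * (A * c * A⁻¹) * (A * d * A⁻¹) := fun A a b c d => by group
  rw [e, conj_xx _ (by decide), conj_xx _ (by decide), conj_xx _ (by decide), conj_xx _ (by decide), tvT1, tvT2, tvT28, tvT30]
  have hp : ((τ ^ 2 ^ m : Kˣ) : K) = th K m (τ : K) := by
    rw [th_ap, Units.val_pow_eq_pow_val]
  have e1 : th K m ((τ : K) * t) = th K m (τ : K) * th K m t := map_mul _ _ _
  have e2 : th' K m (th K m (τ : K) * (τ : K) * u) = (τ : K) * th' K m (τ : K) * th' K m u := by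
    rw [map_mul, map_mul, th'_th hK]
  simp only [Units.val_mul, hp, Units.val_pow_eq_pow_val]
  rw [e1, e2, th_sq m (τ : K)]
  congr 3
  · ring
  · ring

include hK

lemma Eq_self_zero (u : K) : (Eq checks (th K m) (th' K m) 27 25 28 30 0 u)⁻¹ = Eq checks (th K m) (th' K m) 27 25 28 30 0 u := by
  apply inv_eq_of_mul_eq_one_right
  have hq := QuadH_of (K := K) (m := m) qt0
  rw [hq.Eq_mul (th'_th hK) (th_sq m), add_zero, map_zero, zero_mul, add_zero, CharTwo.add_self_eq_zero, hq.Eq_zero]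

lemma Eq_inv (t : K) : (Eq checks (th K m) (th' K m) 27 25 28 30 t 0)⁻¹ = Eq checks (th K m) (th' K m) 27 25 28 30 t (th K m t * t) := by
  apply inv_eq_of_mul_eq_one_right
  have hq := QuadH_of (K := K) (m := m) qt0
  rw [hq.Eq_mul (th'_th hK) (th_sq m), zero_add, CharTwo.add_self_eq_zero, CharTwo.add_self_eq_zero, hq.Eq_zero]

lemma Eq_split (t u : K) : Eq checks (th K m) (th' K m) 27 25 28 30 t u = Eq checks (th K m) (th' K m) 27 25 28 30 t 0 * Eq checks (th K m) (th' K m) 27 25 28 30 0 u := by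
  have hq := QuadH_of (K := K) (m := m) qt0
  rw [hq.Eq_mul (th'_th hK) (th_sq m), add_zero, zero_add, mul_zero, add_zero]

/-- a class of two roots lies in the derived subgroup -/
theorem EP_DT (s τ : Kˣ) (hs : s ≠ 1) (v : K) : Ep checks (th K m) 33 24 v ∈ DT (GS K m) := by
  have hs' : (s : K) + 1 ≠ 0 := by
    intro h
    apply hs
    apply Units.ext
    rw [Units.val_one]
    exact CharTwo.add_eq_zero.mp h
  set w := v / ((s : K) + 1) with hw
  have h1 := comm_mem_DT (TT_mem_GS hK s τ) (E7 (m := m) w)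
  rw [conj_TT_Ep, Ep_self, Ep_mul] at h1
  convert h1 using 2
  rw [hw]
  field_simp

/-- a part of a class of four roots lies in the derived subgroup -/
theorem EE0_DT (s τ : Kˣ) (hτ : τ ^ 2 ^ m * τ ≠ 1) (v : K) : Eq checks (th K m) (th' K m) 27 25 28 30 0 v ∈ DT (GS K m) := by
  have hs' : ((τ ^ 2 ^ m * τ : Kˣ) : K) + 1 ≠ 0 := by
    intro h
    apply hτ
    apply Units.ext
    rw [Units.val_one]
    exact CharTwo.add_eq_zero.mp h
  have hq := QuadH_of (K := K) (m := m) qt0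
  set c : K := ((τ ^ 2 ^ m * τ : Kˣ) : K) with hc
  set w := v / (c + 1) with hw
  have h1 := comm_mem_DT (TT_mem_GS hK s τ) (E0 (m := m) 0 w)
  rw [conj_TT_Eq hK, Eq_self_zero hK, mul_zero, hq.Eq_mul (th'_th hK) (th_sq m), map_zero, zero_mul, add_zero, add_zero] at h1
  convert h1 using 2
  rw [hw]
  field_simp
  ring

/-- the other part of a class of four roots lies in the derived subgroup -/
theorem EEt_DT (s τ : Kˣ) (hτ : τ ≠ 1) (hτ2 : τ ^ 2 ^ m * τ ≠ 1) (v : K) : Eq checks (th K m) (th' K m) 27 25 28 30 v 0 ∈ DT (GS K m) := by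
  have hs' : (τ : K) + 1 ≠ 0 := by
    intro h
    apply hτ
    apply Units.ext
    rw [Units.val_one]
    exact CharTwo.add_eq_zero.mp h
  have hq := QuadH_of (K := K) (m := m) qt0
  set t := v / ((τ : K) + 1) with ht
  have h1 := comm_mem_DT (TT_mem_GS hK s τ) (E0 (m := m) t 0)
  rw [conj_TT_Eq hK, Eq_inv hK, mul_zero, hq.Eq_mul (th'_th hK) (th_sq m)] at h1
  have e : (τ : K) * t + t = v := by
    rw [ht]
    field_simp
  rw [e] at h1
  rw [Eq_split hK] at h1
  have h2 := mul_mem h1 (inv_mem (EE0_DT hK s τ hτ2 (0 + th K m t * t + th K m ((τ : K) * t) * t)))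
  rwa [mul_inv_cancel_right] at h2

/-- a class of four roots lies in the derived subgroup -/
theorem EE_DT (s τ : Kˣ) (hτ : τ ≠ 1) (hτ2 : τ ^ 2 ^ m * τ ≠ 1) (t u : K) : Eq checks (th K m) (th' K m) 27 25 28 30 t u ∈ DT (GS K m) := by
  rw [Eq_split hK]
  exact mul_mem (EEt_DT hK s τ hτ hτ2 t) (EE0_DT hK s τ hτ2 u)

omit hK in
/-- conjugation with the longest element -/
lemma conjW0 (s : ℕ) (hs : s < chevF4.nroots) (t : K) :
    nWordG checks K (j0.flatMap Js) * xG checks s t * (nWordG checks K (j0.flatMap Js))⁻¹ = xG checks (applyW chevF4 T (j0.flatMap Js) s) t := conj_word checks j0_flat_lt hs t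

omit hK in
lemma EPN_eq (t : K) : nWordG checks K (j0.flatMap Js) * Ep checks (th K m) 33 24 t * (nWordG checks K (j0.flatMap Js))⁻¹ = Ep checks (th K m) 14 23 t := by
  rw [conj_Ep checks conjW0 (r := 33) (s := 24) (by decide) (by decide) (th K m) t, j0_neg' 33 (by decide), j0_neg' 24 (by decide)]
  rfl

omit hK in
lemma EQN_eq (t u : K) : nWordG checks K (j0.flatMap Js) * Eq checks (th K m) (th' K m) 27 25 28 30 t u * (nWordG checks K (j0.flatMap Js))⁻¹ = Eq checks (th K m) (th' K m) 20 22 19 17 t u := by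
  unfold Eq
  rw [conj_QP checks conjW0 (a := 27) (b := 25) (c := 28) (d := 30) (by decide) (by decide) (by decide) (by decide), j0_neg' 27 (by decide), j0_neg' 25 (by decide), j0_neg' 28 (by decide), j0_neg' 30 (by decide)]
  rfl

/-- the groups `²F₄(q)` are perfect for `q > 2` -/
theorem perfF (hm : 1 ≤ m) : commutator ↥(GS K m) = ⊤ := by
  classical
  apply perfect_of_DT
  obtain ⟨g, hg⟩ := IsCyclic.exists_generator (α := Kˣ)
  have hord : orderOf g = Fintype.card K - 1 := by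
    rw [← Fintype.card_units, ← Nat.card_eq_fintype_card]
    exact orderOf_eq_card_of_forall_mem_zpowers hg
  have h2 : 2 ^ m ≥ 2 := by
    calc 2 ^ m ≥ 2 ^ 1 := Nat.pow_le_pow_right (by norm_num) hm
      _ = 2 := rfl
  have hq : Fintype.card K - 1 > 2 ^ m + 1 := by
    rw [hK, show 2 * m + 1 = m + m + 1 by ring, pow_succ, pow_add]
    have : 2 ^ m * 2 ^ m ≥ 2 * 2 ^ m := Nat.mul_le_mul_right _ h2
    omega
  have hg1 : g ≠ 1 := by
    intro h
    have h3 := orderOf_one (G := Kˣ)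
    rw [← h, hord] at h3
    omega
  have hg2 : g ^ 2 ^ m * g ≠ 1 := by
    rw [← pow_succ]
    apply pow_ne_one_of_lt_orderOf (by omega)
    rw [hord]
    exact hq
  unfold GS twistedF4 Cfsg.Lie.ChevalleyDatum.genSubgroup
  rw [Subgroup.closure_le]
  rintro x ⟨w, hw, hx⟩
  have e : x = wordG checks w := Units.ext (by rw [hx, wordG_val])
  subst e
  rcases hw with ⟨t, rfl | rfl⟩ | ⟨t, u, rfl | rfl⟩
  · rw [word_pair]
    exact EP_DT hK g g hg1 t
  · rw [word_pair]
    show Ep checks (th K m) 14 23 t ∈ DT (GS K m)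
    rw [← EPN_eq]
    exact conj_mem_DT (nFlat_GS hK) (EP_DT hK g g hg1 t)
  · rw [word_quad]
    exact EE_DT hK g g hg1 hg2 t u
  · rw [word_quad]
    show Eq checks (th K m) (th' K m) 20 22 19 17 t u ∈ DT (GS K m)
    rw [← EQN_eq]
    exact conj_mem_DT (nFlat_GS hK) (EE_DT hK g g hg1 hg2 t u)

end

end Cfsg.Agent.H04.Tf.TF4
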