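import Cfsg.Agent.Lib.H04.Tf.PerfF

/-!
# The groups `²F₄(q)`, `q > 2`, are simple
-/

set_option autoImplicit false
set_option linter.style.longLine false
set_option linter.unusedSimpArgs false
set_option linter.unusedSectionVars false
set_option linter.unusedVariables false
set_option maxRecDepth 100000
set_option synthInstance.maxHeartbeats 0
set_option synthInstance.maxSize 100000

open Cfsg.Lie Cfsg.Agent.H04.Chev Cfsg.Agent.H04.Tw
open Cfsg.Agent.H04.Chev.TF4

namespace Cfsg.Agent.H04.Tf.TF4

variable {K : Type*} [Field K] [Fintype K] [CharP K 2] {m : ℕ}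

/-- simplicity of the groups -/
theorem simpleF (hm : 1 ≤ m) (hK : Fintype.card K = 2 ^ (2 * m + 1)) : IsSimpleGroup ↥(GS K m) ∧ ¬ IsMulCommutative ↥(GS K m) := by
  have hcore := core_eq_bot' hK
  have hxS := xJ_GS (K := K) (m := m) 0
  have hxne := xJ_ne hK (j := 0) (by decide)
  have hxB : xJ K m 0 ∈ chevF4.borelSubgroup K := xJ_U (by decide)
  haveI hnt : Nontrivial ↥(GS K m) := ⟨⟨⟨_, hxS⟩, 1, fun e => hxne (congrArg Subtype.val e)⟩⟩
  constructor
  · apply Cfsg.Agent.H02.BN.simple_criterion (P := bnF hK)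
    · exact bnF_irred hK
    · exact borel_GS_solvable checks checks2 checks3
    · exact perfF hK hm
    · exact hcore
  · intro hc'
    have hN : ((chevF4.borelSubgroup K ⊓ GS K m).subgroupOf (GS K m)).Normal := by
      constructor
      intro n hn x
      have : x * n * x⁻¹ = n := by
        rw [hc'.is_comm.comm x n]
        group
      rwa [this]
    have h3 := Subgroup.normal_le_normalCore.mpr (le_refl ((chevF4.borelSubgroup K ⊓ GS K m).subgroupOf (GS K m)))
    rw [hcore] at h3
    have h4 : (⟨_, hxS⟩ : ↥(GS K m)) ∈ (chevF4.borelSubgroup K ⊓ GS K m).subgroupOf (GS K m) := by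
      rw [Subgroup.mem_subgroupOf]
      exact Subgroup.mem_inf.mpr ⟨hxB, hxS⟩
    exact hxne (congrArg Subtype.val (Subgroup.mem_bot.mp (h3 h4)))

end Cfsg.Agent.H04.Tf.TF4
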