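import Cfsg.Agent.Lib.H04.Tf.OrderF
import Cfsg.Agent.Lib.H04.Tw.WeylT
import Mathlib.GroupTheory.SpecificGroups.Dihedral

/-!
# The Weyl group of the groups `²F₄`
-/

set_option autoImplicit false
set_option linter.style.longLine false
set_option linter.unusedSimpArgs false
set_option linter.unusedSectionVars false
set_option linter.unusedVariables false
set_option maxRecDepth 100000
set_option synthInstance.maxHeartbeats 0
set_option synthInstance.maxSize 100000

open Cfsg.Lie Cfsg.Agent.H04.Chev Cfsg.Agent.H04.Tw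
open Cfsg.Agent.H04.Chev.TF4

namespace Cfsg.Agent.H04.Tf

section dih
variable {X : Type*} [Group X] {x y : X}

lemma dih_add (h8 : (x * y) ^ 8 = 1) (i j : ZMod 8) : (x * y) ^ i.val * (x * y) ^ j.val = (x * y) ^ (i + j).val := by
  rw [← pow_add, pow_eq_pow_mod _ h8, ZMod.val_add]

lemma dih_sub (h8 : (x * y) ^ 8 = 1) (i j : ZMod 8) : ((x * y) ^ i.val)⁻¹ * (x * y) ^ j.val = (x * y) ^ (j - i).val := by
  have h := dih_add h8 (j - i) i
  rw [sub_add_cancel] at h
  rw [← h, ← pow_mul_comm, inv_mul_cancel_left]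

lemma dih_conj (hx : x * x = 1) (hy : y * y = 1) (n : ℕ) : (x * y) ^ n * x = x * ((x * y) ^ n)⁻¹ := by
  induction n with
  | zero => simp
  | succ n ih =>
    have hxi : x⁻¹ = x := inv_eq_of_mul_eq_one_left hx
    have hyi : y⁻¹ = y := inv_eq_of_mul_eq_one_left hy
    have e1 : (x * y)⁻¹ = y * x := by rw [mul_inv_rev, hxi, hyi]
    calc (x * y) ^ (n + 1) * x = (x * y) ^ n * x * (y * x) := by
          rw [pow_succ]
          simp only [mul_assoc]
      _ = x * ((x * y) ^ n)⁻¹ * (x * y)⁻¹ := by rw [ih, e1]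
      _ = x * ((x * y) ^ (n + 1))⁻¹ := by rw [pow_succ', mul_inv_rev (x * y) ((x * y) ^ n), mul_assoc]

/-- the homomorphism from a dihedral group given by two involutions -/
def dihHom (hx : x * x = 1) (hy : y * y = 1) (h8 : (x * y) ^ 8 = 1) : DihedralGroup 8 →* X :=
  MonoidHom.mk' (fun d => match d with
    | DihedralGroup.r i => (x * y) ^ i.val
    | DihedralGroup.sr i => x * (x * y) ^ i.val) (by
    rintro (i | i) (j | j)
    · rw [DihedralGroup.r_mul_r]
      exact (dih_add h8 i j).symm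
    · rw [DihedralGroup.r_mul_sr]
      show x * (x * y) ^ (j - i).val = (x * y) ^ i.val * (x * (x * y) ^ j.val)
      rw [← dih_sub h8, ← mul_assoc ((x * y) ^ i.val) x, dih_conj hx hy, mul_assoc]
    · rw [DihedralGroup.sr_mul_r]
      show x * (x * y) ^ (i + j).val = x * (x * y) ^ i.val * (x * y) ^ j.val
      rw [← dih_add h8, mul_assoc]
    · rw [DihedralGroup.sr_mul_sr]
      show (x * y) ^ (j - i).val = x * (x * y) ^ i.val * (x * (x * y) ^ j.val)
      rw [← dih_sub h8, mul_assoc, ← mul_assoc _ x, dih_conj hx hy, ← mul_assoc, ← mul_assoc, hx, one_mul])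

@[simp] lemma dihHom_r (hx : x * x = 1) (hy : y * y = 1) (h8 : (x * y) ^ 8 = 1) (i : ZMod 8) : dihHom hx hy h8 (DihedralGroup.r i) = (x * y) ^ i.val := rfl

@[simp] lemma dihHom_sr (hx : x * x = 1) (hy : y * y = 1) (h8 : (x * y) ^ 8 = 1) (i : ZMod 8) : dihHom hx hy h8 (DihedralGroup.sr i) = x * (x * y) ^ i.val := rfl

end dih

end Cfsg.Agent.H04.Tf

namespace Cfsg.Agent.H04.Tf.TF4

/-- a word for a power -/
def pwL (n : ℕ) : List ℕ := (List.replicate n (Js 0 ++ Js 1)).flatten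

theorem pwL_lt : ∀ n, ∀ i ∈ pwL n, i < chevF4.rank := by
  intro n i hi
  unfold pwL at hi
  obtain ⟨l, hl, hi⟩ := List.mem_flatten.mp hi
  rw [List.eq_of_mem_replicate hl] at hi
  have h : ∀ i ∈ Js 0 ++ Js 1, i < chevF4.rank := by decide
  exact h i hi

theorem pw_8 : ∀ s, s < 48 → applyW chevF4 T (pwL 8) s = s := by decide +kernel

theorem pw_ne : ∀ n, n < 8 → n ≠ 0 → ∃ s, s < 48 ∧ applyW chevF4 T (pwL n) s ≠ s := by decide +kernel

theorem pw_ne' : ∀ n, n < 8 → ∃ s, s < 48 ∧ applyW chevF4 T (Js 0) (applyW chevF4 T (pwL n) s) ≠ s := by decide +kernel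

/-- the first generator -/
noncomputable abbrev xF : Equiv.Perm (Fin chevF4.nroots) := wordP checks (Js 0)
/-- the second generator -/
noncomputable abbrev yF : Equiv.Perm (Fin chevF4.nroots) := wordP checks (Js 1)

theorem wordP_pw (n : ℕ) : wordP checks (pwL n) = (xF * yF) ^ n := by
  induction n with
  | zero => exact wordP_nil checks
  | succ n ih =>
    have e : pwL (n + 1) = (Js 0 ++ Js 1) ++ pwL n := by
      unfold pwL
      rw [List.replicate_succ, List.flatten_cons]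
    rw [e, wordP_append, wordP_append, ih, pow_succ']

theorem xF_sq : xF * xF = 1 := by
  have h := wordP_J_inv (j := 0) (by decide)
  show wordP checks (Js 0) * wordP checks (Js 0) = 1
  nth_rw 1 [← h]
  exact inv_mul_cancel _

theorem yF_sq : yF * yF = 1 := by
  have h := wordP_J_inv (j := 1) (by decide)
  show wordP checks (Js 1) * wordP checks (Js 1) = 1
  nth_rw 1 [← h]
  exact inv_mul_cancel _

theorem xyF_8 : (xF * yF) ^ 8 = 1 := by
  rw [← wordP_pw]
  ext s
  rw [wordP_apply checks (pwL_lt 8), pw_8 _ s.2]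
  rfl

/-- the representation of the dihedral group -/
noncomputable def dF : DihedralGroup 8 →* Equiv.Perm (Fin chevF4.nroots) := dihHom xF_sq yF_sq xyF_8

theorem dF_inj : Function.Injective dF := by
  rw [injective_iff_map_eq_one]
  rintro (i | i) h
  · have h1 : (xF * yF) ^ i.val = 1 := h
    rw [← wordP_pw] at h1
    have hv : i.val < 8 := ZMod.val_lt i
    by_cases h0 : i.val = 0
    · rw [(ZMod.val_eq_zero i).mp h0]
      rfl
    · exfalso
      obtain ⟨s, hs, hs2⟩ := pw_ne _ hv h0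
      apply hs2
      have h2 := wordP_apply checks (pwL_lt i.val) ⟨s, hs⟩
      rw [h1] at h2
      exact h2.symm
  · exfalso
    have h1 : xF * (xF * yF) ^ i.val = 1 := h
    rw [← wordP_pw] at h1
    have hv : i.val < 8 := ZMod.val_lt i
    obtain ⟨s, hs, hs2⟩ := pw_ne' _ hv
    apply hs2
    have h2 := congrArg (fun w : Equiv.Perm (Fin chevF4.nroots) => ((w ⟨s, hs⟩ : Fin chevF4.nroots) : ℕ)) h1
    simp only [Equiv.Perm.mul_apply] at h2
    rw [wordP_apply checks (Js_lt 0 (by decide))] at h2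
    rw [wordP_apply checks (pwL_lt i.val)] at h2
    exact h2

theorem dF_sr0 : dF (DihedralGroup.sr 0) = xF := by
  show xF * (xF * yF) ^ (0 : ZMod 8).val = xF
  simp

theorem dF_sr1 : dF (DihedralGroup.sr 1) = yF := by
  show xF * (xF * yF) ^ (1 : ZMod 8).val = yF
  rw [show (1 : ZMod 8).val = 1 from rfl, pow_one, ← mul_assoc, xF_sq, one_mul]

section
variable {K : Type*} [Field K] [Fintype K] [CharP K 2] {m : ℕ}
variable (hK : Fintype.card K = 2 ^ (2 * m + 1))
include hK

/-- `N¹/H¹` is the dihedral group -/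
theorem weylF : ∃ φ : ↥(chevF4.monomialSubgroup K ⊓ GS K m) →* DihedralGroup 8, Function.Surjective φ ∧
    φ.ker = (chevF4.diagonalSubgroup K ⊓ GS K m).subgroupOf (chevF4.monomialSubgroup K ⊓ GS K m) := by
  obtain ⟨ψ, hψ1, hψ2⟩ := exists_rhoN (K := K) checks checks2 checks3
  let φ₀ : ↥(chevF4.monomialSubgroup K ⊓ GS K m) →* Equiv.Perm (Fin chevF4.nroots) := ψ.comp (Subgroup.inclusion inf_le_left)
  have hφ₀ : ∀ g : ↥(chevF4.monomialSubgroup K ⊓ GS K m), φ₀ g = ψ ⟨g.1, (Subgroup.mem_inf.mp g.2).1⟩ := fun g => rfl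
  have hNJ : ∀ j, j < 2 → nWordG checks K (Js j) ∈ chevF4.monomialSubgroup K := fun j hj => nWordG_mem checks checks3 (Js_lt j hj)
  have hψJ : ∀ j (hj : j < 2), ψ ⟨nWordG checks K (Js j), hNJ j hj⟩ = wordP checks (Js j) := by
    intro j hj
    obtain ⟨π', e, ha⟩ := NAct_word (F := K) checks (Js_lt j hj)
    ext s
    rw [wordP_apply checks (Js_lt j hj)]
    exact hψ1 _ _ _ _ ha s
  -- the image
  have hrange : ∀ g : ↥(chevF4.monomialSubgroup K ⊓ GS K m), φ₀ g ∈ dF.range := by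
    rintro ⟨g, hg⟩
    obtain ⟨hg1, hg2⟩ := Subgroup.mem_inf.mp hg
    have hZ : g ∈ (dF.range.comap ψ).map (chevF4.monomialSubgroup K).subtype := by
      refine N_fix_ind hK _ ?_ ?_ hg1 ((mem_GS_iff hK).mp hg2).1
      · intro j hj
        refine ⟨⟨_, hNJ j hj⟩, ?_, rfl⟩
        show ψ _ ∈ dF.range
        rw [hψJ j hj]
        have hc : j = 0 ∨ j = 1 := by omega
        rcases hc with rfl | rfl
        · exact ⟨_, dF_sr0⟩
        · exact ⟨_, dF_sr1⟩
      · intro x hx
        obtain ⟨hx1, hx2⟩ := Subgroup.mem_inf.mp hx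
        refine ⟨⟨x, H_le_monomial hx1⟩, ?_, rfl⟩
        show ψ _ ∈ dF.range
        rw [(hψ2 _).mpr hx1]
        exact one_mem _
    obtain ⟨⟨y, hy⟩, hy1, hy2⟩ := hZ
    have e : y = g := hy2
    subst e
    exact hy1
  let e := MonoidHom.ofInjective dF_inj
  let φ : ↥(chevF4.monomialSubgroup K ⊓ GS K m) →* DihedralGroup 8 := e.symm.toMonoidHom.comp (φ₀.codRestrict dF.range hrange)
  have hx₀ : xF ∈ φ₀.range := by
    have hm : nWordG checks K (Js 0) ∈ chevF4.monomialSubgroup K ⊓ GS K m := Subgroup.mem_inf.mpr ⟨hNJ 0 (by decide), nJ_GS hK⟩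
    exact ⟨⟨_, hm⟩, hψJ 0 (by decide)⟩
  have hy₀ : yF ∈ φ₀.range := by
    have hm : nWordG checks K (Js 1) ∈ chevF4.monomialSubgroup K ⊓ GS K m := Subgroup.mem_inf.mpr ⟨hNJ 1 (by decide), nJ_GS hK⟩
    exact ⟨⟨_, hm⟩, hψJ 1 (by decide)⟩
  refine ⟨φ, ?_, ?_⟩
  · intro d
    have hd : dF d ∈ φ₀.range := by
      rcases d with i | i
      · exact pow_mem (mul_mem hx₀ hy₀) _
      · exact mul_mem hx₀ (pow_mem (mul_mem hx₀ hy₀) _)
    obtain ⟨g, hg⟩ := hd
    refine ⟨g, ?_⟩
    show e.symm _ = d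
    rw [MulEquiv.symm_apply_eq]
    exact Subtype.ext hg
  · ext g
    rw [MonoidHom.mem_ker, Subgroup.mem_subgroupOf]
    have h1 : φ g = 1 ↔ φ₀ g = 1 := by
      show e.symm _ = 1 ↔ _
      rw [map_eq_one_iff _ e.symm.injective]
      exact Subtype.ext_iff
    rw [h1, hφ₀, hψ2]
    constructor
    · intro h2
      exact Subgroup.mem_inf.mpr ⟨h2, (Subgroup.mem_inf.mp g.2).2⟩
    · intro h2
      exact (Subgroup.mem_inf.mp h2).1

end

end Cfsg.Agent.H04.Tf.TF4
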